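import Mathlib

/-! S3422 (GR): a locally 3-arc transitive graph of valency `q + 1`, girth at least five and
`2 (q² + q + 1)` vertices is bipartite. -/

set_option autoImplicit false

namespace CfsgW3

open Finset

structure Gr {X : Type*} (adj : X → X → Prop) (q : ℕ) : Prop where
  sy : ∀ x y, adj x y → adj y x
  ir : ∀ x, ¬ adj x x
  hq : 2 ≤ q
  val : ∀ x, {y | adj x y}.ncard = q + 1
  tri : ∀ a b c, adj a b → adj b c → ¬ adj a c
  sq : ∀ a b c d, adj a b → adj b c → adj c d → adj d a → a = c ∨ b = d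
  card : Nat.card X = 2 * (q ^ 2 + q + 1)

namespace Gr

variable {X : Type*} {adj : X → X → Prop} {q : ℕ}

/-- vertices at distance two -/
def D2 (adj : X → X → Prop) (a z : X) : Prop := z ≠ a ∧ ∃ y, adj a y ∧ adj y z

/-- vertices at distance at least three -/
def D3 (adj : X → X → Prop) (a z : X) : Prop := z ≠ a ∧ ¬ adj a z ∧ ¬ D2 adj a z

variable [Finite X] (h : Gr adj q)
include h

theorem third (c d d' : X) : ∃ b, adj c b ∧ b ≠ d ∧ b ≠ d' := by
  by_contra hn
  push Not at hn
  have h1 : {y | adj c y} ⊆ {d, d'} := fun y hy => by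
    by_cases f : y = d
    · exact .inl f
    · exact .inr (hn y hy f)
  have h2 := Set.ncard_le_ncard h1
  have h3 := Set.ncard_insert_le d ({d'} : Set X)
  rw [Set.ncard_singleton] at h3
  have := h.val c
  have := h.hq
  omega

open scoped Classical in
theorem val' [Fintype X] (a : X) : (univ.filter (adj a)).card = q + 1 := by
  rw [← h.val a, ← Set.ncard_coe_finset]
  congr 1
  ext; simp

open scoped Classical in
theorem card2 [Fintype X] (a : X) : (univ.filter (D2 adj a)).card = (q + 1) * q := by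
  have e : univ.filter (D2 adj a) =
      (univ.filter (adj a)).biUnion fun y => (univ.filter (adj y)).erase a := by
    ext z
    simp only [D2, mem_filter, mem_univ, true_and, mem_biUnion, mem_erase]
    exact ⟨fun ⟨f, y, f1, f2⟩ => ⟨y, f1, f, f2⟩, fun ⟨y, f1, f, f2⟩ => ⟨f, y, f1, f2⟩⟩
  rw [e, card_biUnion, sum_const_nat (m := q), h.val']
  · intro y hy
    rw [card_erase_of_mem (by simpa using h.sy _ _ (by simpa using hy)), h.val']
    rfl
  · intro y hy y' hy' ne
    rw [Function.onFun, disjoint_left]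
    intro z h1 h2
    simp only [coe_filter, mem_univ, true_and, Set.mem_ofPred_eq, mem_erase, mem_filter] at hy hy' h1 h2
    rcases h.sq a y z y' hy h1.2 (h.sy _ _ h2.2) (h.sy _ _ hy') with f | f
    · exact h1.1 f.symm
    · exact ne f

open scoped Classical in
theorem cardB [Fintype X] (a : X) :
    (univ.filter fun z => ¬ D3 adj a z).card = q ^ 2 + 2 * q + 2 := by
  have e : (univ.filter fun z => ¬ D3 adj a z) =
      insert a (univ.filter (adj a) ∪ univ.filter (D2 adj a)) := by
    ext z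
    rw [mem_filter, mem_insert, mem_union, mem_filter, mem_filter, D3]
    simp only [mem_univ, true_and]
    tauto
  rw [e, card_insert_of_notMem, card_union_of_disjoint, h.val', h.card2]
  · ring
  · rw [disjoint_left]
    intro z h1 h2
    simp only [mem_filter, mem_univ, true_and] at h1 h2
    obtain ⟨-, y, f1, f2⟩ := h2
    exact h.tri a y z f1 f2 h1
  · simp only [mem_union, mem_filter, mem_univ, true_and, not_or]
    exact ⟨h.ir a, fun f => f.1 rfl⟩

open scoped Classical in
theorem card3 [Fintype X] (a : X) : (univ.filter (D3 adj a)).card = q ^ 2 := by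
  have h1 := card_filter_add_card_filter_not (s := univ) (D3 adj a)
  rw [h.cardB, card_univ, ← Nat.card_eq_fintype_card, h.card] at h1
  omega

/-- not all 3-arcs from `x` end at distance two -/
theorem caseA (x : X) (H : ∀ y z w, adj x y → adj y z → adj z w → x ≠ z → y ≠ w → D2 adj x w) :
    False := by
  classical
  have := Fintype.ofFinite X
  have cl : ∀ v w, D3 adj x v → adj v w → D3 adj x w := by
    rintro v w ⟨f1, f2, f3⟩ e
    refine ⟨fun f => f2 (f ▸ h.sy _ _ e), fun f => f3 ⟨f1, w, f, h.sy _ _ e⟩, ?_⟩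
    rintro ⟨f4, y, f5, f6⟩
    exact f3 (H y w v f5 f6 (h.sy _ _ e) f4.symm fun f => f2 (f ▸ f5))
  have h3 := h.card3 x
  have hq := h.hq
  obtain ⟨v, hv⟩ : (univ.filter (D3 adj x)).Nonempty := card_pos.mp (by rw [h3]; positivity)
  rw [mem_filter] at hv
  have : (univ.filter fun z => ¬ D3 adj v z) ⊆ univ.filter (D3 adj x) := by
    intro z hz
    simp only [mem_filter, mem_univ, true_and] at hz ⊢
    by_cases f1 : z = v
    · exact f1 ▸ hv.2
    by_cases f2 : adj v z
    · exact cl _ _ hv.2 f2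
    obtain ⟨-, y, f3, f4⟩ : D2 adj v z := by
      by_contra f
      exact hz ⟨f1, f2, f⟩
    exact cl _ _ (cl _ _ hv.2 f3) f4
  have := card_le_card this
  rw [h.cardB, h3] at this
  omega

/-- if no 3-arc from `x` ends at distance two, the far vertices only see distance two -/
theorem caseB (x : X) (H : ∀ y z w, adj x y → adj y z → adj z w → x ≠ z → y ≠ w → ¬ D2 adj x w)
    {v w : X} (hv : D3 adj x v) (e : adj v w) : D2 adj x w := by
  classical
  have := Fintype.ofFinite X
  have h1 : ∀ z ∈ univ.filter (D2 adj x), ((univ.filter (D3 adj x)).filter (adj z)).card = q := by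
    intro z hz
    obtain ⟨f1, y, f2, f3⟩ := (mem_filter.mp hz).2
    have : (univ.filter (D3 adj x)).filter (adj z) = (univ.filter (adj z)).erase y := by
      ext t
      simp only [mem_filter, mem_univ, true_and, mem_erase]
      refine ⟨fun ⟨f4, f5⟩ => ⟨fun f => f4.2.1 (f ▸ f2), f5⟩, fun ⟨f4, f5⟩ => ⟨⟨?_, ?_, ?_⟩, f5⟩⟩
      · rintro rfl
        exact h.tri _ _ _ f2 f3 (h.sy _ _ f5)
      · intro f
        rcases h.sq x y z t f2 f3 f5 (h.sy _ _ f) with f | f
        · exact f1 f.symm
        · exact f4 f.symm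
      · exact H y z t f2 f3 f5 f1.symm (Ne.symm f4)
    rw [this, card_erase_of_mem (by simpa using h.sy _ _ f3), h.val']
    rfl
  have h2 := sum_card_bipartiteAbove_eq_sum_card_bipartiteBelow
    (s := univ.filter (D2 adj x)) (t := univ.filter (D3 adj x)) adj
  simp only [bipartiteAbove, bipartiteBelow] at h2
  rw [sum_const_nat h1, h.card2] at h2
  have h3 : ∀ t ∈ univ.filter (D3 adj x),
      (univ.filter (D2 adj x)).filter (fun z => adj z t) ⊆ univ.filter (adj t) := by
    intro t _ z hz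
    simp only [mem_filter, mem_univ, true_and] at hz ⊢
    exact h.sy _ _ hz.2
  have h4 := (sum_eq_sum_iff_of_le (s := univ.filter (D3 adj x))
    (f := fun t => ((univ.filter (D2 adj x)).filter (fun z => adj z t)).card)
    (g := fun _ => q + 1) fun t ht => (card_le_card (h3 t ht)).trans (h.val' t).le).mp
    (by rw [← h2, sum_const, h.card3, smul_eq_mul]; ring) v (by simpa using hv)
  have h5 := eq_of_subset_of_card_le (h3 v (by simpa using hv)) (by rw [h.val', h4])
  have : w ∈ univ.filter (adj v) := by simpa using e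
  rw [← h5] at this
  simp only [mem_filter, mem_univ, true_and] at this
  exact this.1

theorem false {G : Type*} [Group G] [MulAction G X] [IsSimpleGroup G]
    (iv : ∀ (g : G) x y, adj x y → adj (g • x) (g • y)) (t0 : ∀ a b : X, ∃ g : G, g • a = b)
    (t3 : ∀ a b c d d', adj a b → adj b c → a ≠ c → adj c d → adj c d' → b ≠ d → b ≠ d' →
      ∃ g : G, g • a = a ∧ g • b = b ∧ g • c = c ∧ g • d = d') : False := by
  classical
  have t2 : ∀ b c d d', adj b c → adj c d → adj c d' → b ≠ d → b ≠ d' →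
      ∃ g : G, g • b = b ∧ g • c = c ∧ g • d = d' := by
    intro b c d d' f1 f2 f3 f4 f5
    obtain ⟨a, f6, f7, -⟩ := h.third b c c
    obtain ⟨g, -, hg⟩ := t3 a b c d d' (h.sy _ _ f6) f1 f7 f2 f3 f4 f5
    exact ⟨g, hg⟩
  have t1 : ∀ c d d', adj c d → adj c d' → ∃ g : G, g • c = c ∧ g • d = d' := by
    intro c d d' f1 f2
    obtain ⟨b, f3, f4, f5⟩ := h.third c d d'
    obtain ⟨g, -, hg⟩ := t2 b c d d' (h.sy _ _ f3) f1 f2 f4 f5
    exact ⟨g, hg⟩
  have ne : ∀ (g : G) {a b : X}, a ≠ b → g • a ≠ g • b := fun g a b f f' =>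
    f ((smul_left_cancel_iff g).mp f')
  obtain ⟨x⟩ : Nonempty X := by
    have := h.card
    exact (Nat.card_pos_iff.mp (by omega)).1
  by_cases H : ∀ y z w, adj x y → adj y z → adj z w → x ≠ z → y ≠ w → ¬ D2 adj x w
  swap
  · push Not at H
    obtain ⟨y, z, w, f1, f2, f3, f4, f5, f6⟩ := H
    have mv : ∀ (g : G) t, g • x = x → D2 adj x t → D2 adj x (g • t) := by
      rintro g t e ⟨f, s, f', f''⟩
      exact ⟨e ▸ ne g f, g • s, e ▸ iv g _ _ f', iv g _ _ f''⟩
    refine h.caseA x fun y' z' w' e1 e2 e3 e4 e5 => ?_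
    obtain ⟨g, a1, a2⟩ := t1 x y y' f1 e1
    obtain ⟨g', b1, b2, b3⟩ := t2 x y' (g • z) z' e1 (a2 ▸ iv g _ _ f2) e2 (a1 ▸ ne g f4) e4
    obtain ⟨g'', c1, c2, c3, c4⟩ := t3 x y' z' (g' • g • w) w' e1 e2 e4
      (b3 ▸ iv g' _ _ (iv g _ _ f3)) e3 (by rw [← b2, ← a2]; exact ne g' (ne g f5)) e5
    exact c4 ▸ mv _ _ c1 (mv _ _ b1 (mv _ _ a1 f6))
  -- the colouring
  set c : X → Prop := fun v => v = x ∨ D2 adj x v with hc
  have col : ∀ v w, adj v w → (c v ↔ ¬ c w) := by
    have k1 : ∀ w, adj x w → ¬ c w := by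
      rintro w e (rfl | ⟨-, y, f1, f2⟩)
      exacts [h.ir _ e, h.tri _ _ _ f1 f2 e]
    have k2 : ∀ v w, adj v w → adj x v → c w := fun v w e f => by
      by_cases f' : w = x
      exacts [.inl f', .inr ⟨f', v, f, e⟩]
    intro v w e
    refine ⟨?_, fun f => ?_⟩
    · rintro (rfl | ⟨f1, y, f2, f3⟩)
      · exact k1 w e
      rintro (rfl | f4)
      · exact h.tri _ _ _ f2 f3 (h.sy _ _ e)
      · exact H y v w f2 f3 e f1.symm (fun f => k1 w (f ▸ f2) (.inr f4)) f4
    · by_cases f1 : adj x w
      · exact k2 w v (h.sy _ _ e) f1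
      · exact .inr (h.caseB x H ⟨fun f2 => f (.inl f2), f1, fun f2 => f (.inr f2)⟩ (h.sy _ _ e))
  have con : ∀ p : X → Prop, p x → (∀ v w, adj v w → p v → p w) → ∀ v, p v := by
    intro p f1 f2 v
    have k : ∀ w, D2 adj x w → p w := by
      rintro w ⟨-, y, f3, f4⟩
      exact f2 _ _ f4 (f2 _ _ f3 f1)
    by_cases e1 : v = x
    · exact e1 ▸ f1
    by_cases e2 : adj x v
    · exact f2 _ _ e2 f1
    by_cases e3 : D2 adj x v
    · exact k v e3
    obtain ⟨w, e4, -⟩ := h.third v v v
    exact f2 _ _ (h.sy _ _ e4) (k w (h.caseB x H ⟨e1, e2, e3⟩ e4))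
  have cx : c x := .inl rfl
  have p1 : ∀ g : G, c (g • x) → ∀ v, c (g • v) ↔ c v := fun g f =>
    con _ (iff_of_true f cx) fun v w e f' => by
      have a := col v w e
      have b := col _ _ (iv g _ _ e)
      tauto
  have p2 : ∀ g : G, ¬ c (g • x) → ∀ v, c (g • v) ↔ ¬ c v := fun g f =>
    con _ (iff_of_false f (not_not.mpr cx)) fun v w e f' => by
      have a := col v w e
      have b := col _ _ (iv g _ _ e)
      tauto
  let K : Subgroup G :=
    { carrier := {g | c (g • x)}
      mul_mem' := fun {a b} f1 f2 => by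
        change c ((a * b) • x)
        rw [mul_smul]
        exact (p1 a f1 _).mpr f2
      one_mem' := by
        change c ((1 : G) • x)
        rw [one_smul]
        exact cx
      inv_mem' := fun {a} f1 => by
        change c (a⁻¹ • x)
        rw [← p1 a f1, smul_inv_smul]
        exact cx }
  have nK : K.Normal := ⟨fun a f g => by
    change c ((g * a * g⁻¹) • x)
    rw [mul_smul, mul_smul]
    have a1 := p1 a f (g⁻¹ • x)
    by_cases e : c (g • x)
    · have a2 := p1 g e (g⁻¹ • x)
      rw [smul_inv_smul] at a2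
      rw [p1 g e, a1]
      exact a2.mp cx
    · have a2 := p2 g e (g⁻¹ • x)
      rw [smul_inv_smul] at a2
      rw [p2 g e, a1]
      exact a2.mp cx⟩
  obtain ⟨y, e1, -⟩ := h.third x x x
  rcases nK.eq_bot_or_eq_top with f | f
  · obtain ⟨z, e2, e3, -⟩ := h.third y x x
    obtain ⟨g, hg⟩ := t0 x z
    have : g ∈ K := by
      change c (g • x)
      exact hg ▸ .inr ⟨e3, y, e1, e2⟩
    rw [f, Subgroup.mem_bot] at this
    rw [this, one_smul] at hg
    exact e3 hg.symm
  · obtain ⟨g, hg⟩ := t0 x y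
    have : c (g • x) := (f ▸ Subgroup.mem_top g : g ∈ K)
    exact (col x y e1).mp cx (hg ▸ this)

end Gr

end CfsgW3
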